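import Cfsg.Agent.S0822
import Cfsg.Agent.H700.PwU.Row

/-!
# S2465: `PSp₄(3) ≅ PSU₄(2)`: every element is a product of two elements of order prime to 6
-/

set_option autoImplicit false

namespace Cfsg.Agent.H667.Pw

open Cfsg.Agent.H78.Pw

theorem six_psp_two_three {F : Type*} [Field F] [Fintype F] (hF : Fintype.card F = 3) : All 6 (Cfsg.PSp 2 F) := by
  have h4 : Nat.card (GaloisField 2 2) = 4 := by
    rw [GaloisField.card 2 2 (by norm_num)]
    norm_num
  letI : Fintype (GaloisField 2 2) := Fintype.ofFinite _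
  have h5 : Fintype.card (GaloisField 2 2) = 4 := by rw [← Nat.card_eq_fintype_card, h4]
  obtain ⟨e⟩ := Cfsg.Agent.S0822.result (F := GaloisField 2 2) (K := F) h5 hF
  exact All.congr e (H700.PwU.six_psu 4 2 le_rfl (by rw [h5]; norm_num))

end Cfsg.Agent.H667.Pw
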